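import Cfsg.Agent.ConjFunctor.FusionInduction
import Cfsg.Agent.ConjFunctor.WellPlaced

/-!
Conjugation families.
-/

set_option autoImplicit false

open Cfsg

namespace CfsgLib.ConjFunctor

variable {G : Type*} [Group G] {p : ℕ}

/-- A chain of conjugations inside normalizers of members of `F`, starting from the set `A`. -/
def FamilyChain (F : Set (Subgroup G)) : Set G → List (Subgroup G × G) → Prop
  | _, [] => True
  | A, x :: l => x.1 ∈ F ∧ x.2 ∈ Subgroup.normalizer (x.1 : Set G) ∧ A ⊆ x.1 ∧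
      FamilyChain F ((fun a => x.2⁻¹ * a * x.2) '' A) l

lemma familyChain_nil (F : Set (Subgroup G)) (A : Set G) : FamilyChain F A [] := trivial

lemma familyChain_cons {F : Set (Subgroup G)} {A : Set G} {x : Subgroup G × G} {l : List (Subgroup G × G)} :
    FamilyChain F A (x :: l) ↔ x.1 ∈ F ∧ x.2 ∈ Subgroup.normalizer (x.1 : Set G) ∧ A ⊆ x.1 ∧
      FamilyChain F ((fun a => x.2⁻¹ * a * x.2) '' A) l := Iff.rfl

lemma image_conj_image (x y : G) (A : Set G) :
    (fun a => y⁻¹ * a * y) '' ((fun a => x⁻¹ * a * x) '' A) = (fun a => (x * y)⁻¹ * a * (x * y)) '' A := by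
  rw [Set.image_image]
  exact Set.image_congr fun a _ => by group

lemma familyChain_append {F : Set (Subgroup G)} : ∀ (l l' : List (Subgroup G × G)) (A : Set G),
    FamilyChain F A l →
      FamilyChain F ((fun a => ((l.map Prod.snd).prod)⁻¹ * a * (l.map Prod.snd).prod) '' A) l' →
        FamilyChain F A (l ++ l')
  | [], l', A, _, h => by simpa using h
  | x :: l, l', A, h, h' => by
    rw [List.cons_append, familyChain_cons]
    obtain ⟨h1, h2, h3, h4⟩ := familyChain_cons.mp h
    refine ⟨h1, h2, h3, familyChain_append l l' _ h4 ?_⟩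
    rw [image_conj_image]
    simpa [List.map_cons, List.prod_cons] using h'

lemma familyChain_mono {F : Set (Subgroup G)} : ∀ (l : List (Subgroup G × G)) {A B : Set G},
    A ⊆ B → FamilyChain F B l → FamilyChain F A l
  | [], _, _, _, _ => trivial
  | _ :: l, _, _, hAB, h => ⟨h.1, h.2.1, hAB.trans h.2.2.1,
      familyChain_mono l (Set.image_mono hAB) h.2.2.2⟩

lemma familyChain_get {F : Set (Subgroup G)} : ∀ (l : List (Subgroup G × G)) (A : Set G),
    FamilyChain F A l → ∀ i (hi : i < l.length), l[i].1 ∈ F ∧ l[i].2 ∈ Subgroup.normalizer (l[i].1 : Set G) ∧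
      (fun a => (((l.map Prod.snd).take i).prod)⁻¹ * a * ((l.map Prod.snd).take i).prod) '' A ⊆ l[i].1
  | [], _, _, i, hi => absurd hi (Nat.not_lt_zero i)
  | x :: l, A, h, 0, _ => ⟨h.1, h.2.1, by simpa using h.2.2.1⟩
  | x :: l, A, h, i + 1, hi => by
    obtain ⟨h1, h2, h3⟩ := familyChain_get l _ h.2.2.2 i (Nat.succ_lt_succ_iff.mp hi)
    refine ⟨h1, h2, ?_⟩
    rw [image_conj_image] at h3
    simpa [List.map_cons, List.take_succ_cons, List.prod_cons] using h3

lemma isConjugationFamily_of_chains {F : Set (Subgroup G)} {S : Subgroup G} (hF : ∀ T ∈ F, T ≤ S)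
    (h : ∀ (A : Set G) (g : G), A.Nonempty → A ⊆ S → (fun a => g⁻¹ * a * g) '' A ⊆ S →
      ∃ l : List (Subgroup G × G), (l.map Prod.snd).prod = g ∧ FamilyChain F A l) :
    IsConjugationFamily F S := by
  refine ⟨hF, fun A g hne hA hg => ?_⟩
  obtain ⟨l, hprod, hl⟩ := h A g hne hA hg
  have e : List.ofFn (fun i : Fin l.length => l[i].2) = l.map Prod.snd := by
    apply List.ext_getElem <;> simp
  refine ⟨l.length, fun i => l[i].1, fun i => l[i].2, by rw [e, hprod],
    fun i => (familyChain_get l A hl i i.2).1, fun i => (familyChain_get l A hl i i.2).2.1,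
    fun h0 => ?_, fun i hi => ?_⟩
  · have := (familyChain_get l A hl 0 h0).2.2
    simpa using this
  · rw [e]
    exact (familyChain_get l A hl (i.val + 1) hi).2.2

variable [Finite G] [Fact p.Prime]

/-- The criterion: every subgroup of `S` has a fully normalised conjugate in the family. -/
theorem isConjugationFamily_of_fullyNormalized (S : Sylow p G) (F : Set (Subgroup G))
    (hF : ∀ U ∈ F, U ≤ (S : Subgroup G))
    (h : ∀ T : Subgroup G, T ≤ (S : Subgroup G) →
      ∃ U ∈ F, FullyNormalized p (S : Subgroup G) U ∧ ∃ g : G, conjOf g T = U) :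
    IsConjugationFamily F (S : Subgroup G) := by
  let Φ : Subgroup G → G → Prop := fun A g =>
    ∃ l : List (Subgroup G × G), (l.map Prod.snd).prod = g⁻¹ ∧ FamilyChain F (A : Set G) l
  have hΦ : FusionProp (S : Subgroup G) Φ := by
    refine ⟨fun A g k _ _ _ ⟨l, hl, hc⟩ ⟨l', hl', hc'⟩ => ⟨l ++ l', by simp [hl, hl'], ?_⟩,
      fun A B g hAB _ _ ⟨l, hl, hc⟩ => ⟨l, hl, familyChain_mono l hAB hc⟩⟩
    refine familyChain_append l l' _ hc ?_
    rw [hl]
    have : (fun a => g⁻¹⁻¹ * a * g⁻¹) '' (A : Set G) = (conjOf g A : Set G) := by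
      ext x; simp
    rw [this]; exact hc'
  have key := fusion_induction S hΦ F h (fun U hUF _ _ y hy =>
    ⟨[(U, y⁻¹)], by simp, hUF, inv_mem hy, subset_rfl, trivial⟩)
  refine isConjugationFamily_of_chains hF fun A g _ hA hg => ?_
  obtain ⟨l, hl, hc⟩ := key (Subgroup.closure A) g⁻¹ ((Subgroup.closure_le _).mpr hA) (by
    rw [conjOf, MonoidHom.map_closure]
    refine (Subgroup.closure_le _).mpr ?_
    rintro _ ⟨a, ha, rfl⟩
    exact hg ⟨a, ha, by simp⟩)
  exact ⟨l, by rw [hl, inv_inv], familyChain_mono l Subgroup.subset_closure hc⟩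

/-- Well-placed subgroups form a conjugation family. -/
theorem isConjugationFamily_wellPlaced (S : Sylow p G) {W : Subgroup G → Subgroup G}
    (hW : IsConjugacyFunctor p W) :
    IsConjugationFamily {T : Subgroup G | IsWellPlaced p W (S : Subgroup G) T} (S : Subgroup G) := by
  refine isConjugationFamily_of_fullyNormalized S _ (fun U hU => wellPlaced_le hU) fun T hT => ?_
  obtain ⟨g, hg⟩ := exists_wellPlaced hW S hT
  exact ⟨_, hg, wellPlaced_fullyNormalized hg, g, rfl⟩

end CfsgLib.ConjFunctor
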