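import Cfsg.Agent.SectionFunctors.Fusion

/-!
A family of section conjugacy functors controls strong fusion if it does so in every constrained section.
-/

set_option autoImplicit false

open Cfsg
open CfsgLib.ConjFunctor

namespace CfsgLib.SectionFunctors

universe u

variable {p : ℕ}

/-- The hypothesis on the constrained sections. -/
def FusionInConstrained (p : ℕ) (𝓦 : Set (∀ (Q : Type u) [Group Q], Subgroup Q)) (G : Type u)
    [Group G] : Prop :=
  ∀ (K R : Subgroup G) [(R.subgroupOf K).Normal],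
    Subgroup.centralizer ((pCore p (↥K ⧸ R.subgroupOf K) : Subgroup (↥K ⧸ R.subgroupOf K)) : Set (↥K ⧸ R.subgroupOf K))
      ≤ pCore p (↥K ⧸ R.subgroupOf K) → ∀ T : Sylow p (↥K ⧸ R.subgroupOf K),
    FusionControlledAt ((fun W => inducedFunctor (G := ↥K ⧸ R.subgroupOf K) W) '' 𝓦) ⊤
      (T : Subgroup (↥K ⧸ R.subgroupOf K))

theorem functorNormalizers_map_equiv {X Y : Type u} [Group X] [Group Y] [Finite X]
    {𝓦 : Set (∀ (Q : Type u) [Group Q], Subgroup Q)} (h𝓦 : ∀ W ∈ 𝓦, IsCharPFunctor.{u} p W) (e : X ≃* Y)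
    {T : Subgroup X} (hT : IsPGroup p ↥T) :
    ∀ N ∈ functorNormalizers ((fun W => inducedFunctor (G := X) W) '' 𝓦) ⊤ T,
      ∃ N' ∈ functorNormalizers ((fun W => inducedFunctor (G := Y) W) '' 𝓦) ⊤ (T.map e.toMonoidHom),
        N.map e.toMonoidHom ≤ N' := by
  rintro _ ⟨_, ⟨W, hW, rfl⟩, rfl⟩
  refine ⟨_, ⟨_, ⟨W, hW, rfl⟩, rfl⟩, ?_⟩
  simp only [top_inf_eq]; rw [inducedFunctor_map_of_injective (h𝓦 W hW) e.toMonoidHom e.injective hT]
  exact Subgroup.le_normalizer_map _

variable [Fact p.Prime]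

theorem fusionControlledAt_of_equiv {𝓦 : Set (∀ (Q : Type u) [Group Q], Subgroup Q)}
    (h𝓦 : ∀ W ∈ 𝓦, IsCharPFunctor.{u} p W) {X Y : Type u} [Group X] [Group Y] [Finite X] (e : X ≃* Y)
    (h : ∀ T : Sylow p X, FusionControlledAt ((fun W => inducedFunctor (G := X) W) '' 𝓦) ⊤ (T : Subgroup X))
    (T : Sylow p Y) : FusionControlledAt ((fun W => inducedFunctor (G := Y) W) '' 𝓦) ⊤ (T : Subgroup Y) := by
  haveI : Finite Y := Finite.of_equiv _ e.toEquiv
  let T' : Sylow p X := T.mapSurjective (f := e.symm.toMonoidHom) e.symm.surjective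
  have hT : (T' : Subgroup X).map e.toMonoidHom = (T : Subgroup Y) := by
    show ((T : Subgroup Y).map e.symm.toMonoidHom).map e.toMonoidHom = _
    exact Constrained.map_map_symm e _
  intro A g _ hA hgA
  have h1 := fusionChain_map_hom e.toMonoidHom (functorNormalizers_map_equiv h𝓦 e T'.2)
    (h T' (A.map e.symm.toMonoidHom) (e.symm g) trivial (Subgroup.map_mono hA) (by
      refine conjOf_le_iff.mpr ?_
      rintro _ ⟨a, ha, rfl⟩
      exact ⟨g * a * g⁻¹, hgA (conj_mem_conjOf ha), by simp⟩))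
  rw [hT, Constrained.map_map_symm] at h1
  simpa using h1

theorem fusionInConstrained_of_surjective {𝓦 : Set (∀ (Q : Type u) [Group Q], Subgroup Q)}
    (h𝓦 : ∀ W ∈ 𝓦, IsCharPFunctor.{u} p W) {G : Type u} [Group G] [Finite G]
    (hloc : FusionInConstrained p 𝓦 G) {H : Type u} [Group H]
    {K₀ : Subgroup G} (f : ↥K₀ →* H) (hf : Function.Surjective f) : FusionInConstrained p 𝓦 H := by
  intro K R _ hc T
  obtain ⟨K', R', hn, ⟨e⟩⟩ := exists_section_equiv f hf K R
  exact fusionControlledAt_of_equiv h𝓦 e (hloc K' R' (centralizer_pCore_le_of_equiv e.symm hc)) T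

/-- A chain in the quotient by a subgroup of order prime to `p` lifts. -/
theorem exists_lift_step_chain {G Y : Type u} [Group G] [Finite G] [Group Y] (S : Sylow p G)
    {𝓦 : Set (∀ (Q : Type u) [Group Q], Subgroup Q)} (h𝓦 : ∀ W ∈ 𝓦, IsCharPFunctor.{u} p W)
    (f : G →* Y) (hf : Function.Surjective f) (hker : (Nat.card f.ker).Coprime p)
    (hdisj : Disjoint (S : Subgroup G) f.ker) :
    ∀ (A' : Subgroup Y) (g' : Y),
      FusionChain (functorNormalizers ((fun W => inducedFunctor (G := Y) W) '' 𝓦) ⊤ ((S : Subgroup G).map f))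
        ((S : Subgroup G).map f) A' g' →
      ∀ (A : Subgroup G) (g : G), A ≤ (S : Subgroup G) → conjOf g A ≤ (S : Subgroup G) → A.map f = A' →
        (∀ a ∈ A, f (g * a * g⁻¹) = g' * f a * g'⁻¹) →
        FusionChain (functorNormalizers ((fun W => inducedFunctor (G := G) W) '' 𝓦) ⊤ (S : Subgroup G))
          (S : Subgroup G) A g := by
  have hinj : ∀ x ∈ (S : Subgroup G), ∀ y ∈ (S : Subgroup G), f x = f y → x = y := fun x hx y hy h =>
    inv_mul_eq_one.mp (Subgroup.disjoint_def.mp hdisj ((S : Subgroup G).mul_mem ((S : Subgroup G).inv_mem hx) hy)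
      (by rw [MonoidHom.mem_ker, map_mul, map_inv, h, inv_mul_cancel]))
  intro A' g' hch
  induction hch with
  | refl A' g' _ hg' =>
    intro A g hA hgA hAA hc
    refine .refl A g hA fun a ha => hinj _ (hgA (conj_mem_conjOf ha)) _ (hA ha) ?_
    rw [hc a ha]
    exact hg' _ (hAA ▸ ⟨a, ha, rfl⟩)
  | step A' x g' k hA' hx hc' hk ih =>
    intro A g hA hgA hAA hc
    obtain ⟨_, ⟨_, ⟨W, hW, rfl⟩, rfl⟩, hxN⟩ := hx
    set N := Subgroup.normalizer ((inducedFunctor (G := G) W (S : Subgroup G) : Subgroup G) : Set G) with hN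
    have hxN' : x ∈ N.map f := by
      have h1 := (Subgroup.mem_inf.mp hxN).2
      simp only [inducedFunctor_map (h𝓦 W hW) f S.2 hdisj] at h1
      exact normalizer_map_le f hf hker (S.2.to_le (inducedFunctor_le _)) h1
    obtain ⟨n, hn, hnx⟩ := hxN'
    have hSN : (S : Subgroup G) ≤ N := le_normalizer_inducedFunctor (h𝓦 W hW) S.2
    have hB : conjOf n A ≤ N ⊓ ((S : Subgroup G) ⊔ f.ker) := by
      refine le_inf (conjOf_le_iff.mpr fun a ha => N.mul_mem (N.mul_mem hn (hSN (hA ha))) (N.inv_mem hn))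
        (conjOf_le_iff.mpr fun a ha => ?_)
      have h1 : f (n * a * n⁻¹) ∈ (S : Subgroup G).map f := by
        rw [map_mul, map_mul, map_inv, hnx]
        exact hc'.domain_le (conj_mem_conjOf (hAA ▸ ⟨a, ha, rfl⟩))
      rwa [← Subgroup.comap_map_eq]
    have hsyl : SylowIn p (S : Subgroup G) (N ⊓ ((S : Subgroup G) ⊔ f.ker)) :=
      ⟨le_inf hSN le_sup_left, S.2, fun h => S.not_dvd_index
        (h.trans (Subgroup.relIndex_dvd_index_of_le (le_inf hSN le_sup_left)))⟩
    obtain ⟨y, hy, hyle⟩ := exists_conj_le_of_sylowIn hsyl hB ((S.2.to_le hA).map _)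
    have hy' : y ∈ (((S : Subgroup G) ⊔ f.ker : Subgroup G) : Set G) := hy.2
    rw [Subgroup.mul_normal] at hy'
    obtain ⟨s, hs, c, hc0, rfl⟩ := Set.mem_mul.mp hy'
    have hcN : c ∈ N := by
      have := N.mul_mem (N.inv_mem (hSN hs)) hy.1
      simpa using this
    rw [conjOf_conjOf] at hyle
    have hcnA : conjOf (c * n) A ≤ (S : Subgroup G) := by
      refine conjOf_le_iff.mpr fun a ha => ?_
      have h1 := (S : Subgroup G).mul_mem ((S : Subgroup G).mul_mem ((S : Subgroup G).inv_mem hs)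
        (hyle (conj_mem_conjOf ha))) hs
      simpa [mul_assoc] using h1
    have hfc : f (c * n) = x := by
      rw [map_mul, MonoidHom.mem_ker.mp hc0, one_mul, hnx]
    refine .step A (c * n) (g * (c * n)⁻¹) g hA ⟨_, ⟨_, ⟨W, hW, rfl⟩, rfl⟩, ⟨trivial, N.mul_mem hcN hn⟩⟩
      (ih (conjOf (c * n) A) _ hcnA ?_ ?_ ?_) fun a _ => by group
    · rw [conjOf_conjOf, inv_mul_cancel_right]
      exact hgA
    · rw [← hAA, ← hfc]
      unfold conjOf
      rw [Subgroup.map_map, Subgroup.map_map]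
      congr 1
      ext y
      simp
    · rintro _ ⟨a, ha, rfl⟩
      show f (g * (c * n)⁻¹ * (c * n * a * (c * n)⁻¹) * (g * (c * n)⁻¹)⁻¹) = g' * f (c * n * a * (c * n)⁻¹) * g'⁻¹
      rw [show g * (c * n)⁻¹ * (c * n * a * (c * n)⁻¹) * (g * (c * n)⁻¹)⁻¹ = g * a * g⁻¹ by group, hc a ha,
        hk _ (hAA ▸ ⟨a, ha, rfl⟩)]
      simp only [map_mul, map_inv, ← hfc]
      group

theorem fusionControlledAt_top_of_constrained
    (𝓦 : Set (∀ (Q : Type u) [Group Q], Subgroup Q)) (h𝓦 : ∀ W ∈ 𝓦, IsCharPFunctor.{u} p W) :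
    ∀ (n : ℕ) (G : Type u) [Group G] [Finite G], Nat.card G = n → FusionInConstrained p 𝓦 G →
      ∀ S : Sylow p G, FusionControlledAt ((fun W => inducedFunctor (G := G) W) '' 𝓦) ⊤ (S : Subgroup G) := by
  intro n
  induction n using Nat.strong_induction_on with
  | _ n IH =>
  intro G _ _ hn hloc S
  set 𝒩 := functorNormalizers ((fun W => inducedFunctor (G := G) W) '' 𝓦) ⊤ (S : Subgroup G) with h𝒩
  have hWG : ∀ W' ∈ (fun W => inducedFunctor (G := G) W) '' 𝓦, IsConjugacyFunctor p W' := by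
    rintro _ ⟨W, hW, rfl⟩
    exact isConjugacyFunctor_inducedFunctor (h𝓦 W hW)
  have hmem : ∀ W ∈ 𝓦, Subgroup.normalizer ((inducedFunctor (G := G) W (S : Subgroup G) : Subgroup G) : Set G) ∈ 𝒩 := by
    intro W hW
    exact ⟨_, ⟨W, hW, rfl⟩, top_inf_eq _⟩
  -- proper subgroups
  have hsub : ∀ H : Subgroup G, H ≠ ⊤ → ∀ T : Subgroup G, SylowIn p T H →
      FusionControlledAt ((fun W => inducedFunctor (G := G) W) '' 𝓦) H T := by
    intro H hH T hT
    refine fusionControlledAt_subgroup hT h𝓦 fun T' => IH _ ?_ ↥H rfl ?_ T'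
    · rw [← hn]
      exact lt_of_le_of_ne (Subgroup.card_le_card_group H) fun he => hH (Subgroup.eq_top_of_card_eq H he)
    · exact fusionInConstrained_of_surjective h𝓦 hloc (MonoidHom.id ↥H) Function.surjective_id
  -- proper subgroups containing S
  have hover : ∀ H : Subgroup G, (S : Subgroup G) ≤ H → H ≠ ⊤ → ∀ (B : Subgroup G) (x : G), x ∈ H →
      B ≤ (S : Subgroup G) → conjOf x B ≤ (S : Subgroup G) → FusionChain 𝒩 (S : Subgroup G) B x := by
    intro H hSH hH B x hx hB hxB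
    refine (hsub H hH _ ⟨hSH, S.2, fun h => S.not_dvd_index (h.trans (Subgroup.relIndex_dvd_index_of_le hSH))⟩
      B x hx hB hxB).mono_sets le_rfl ?_
    rintro _ ⟨W, hW, rfl⟩
    exact ⟨_, ⟨W, hW, rfl⟩, inf_le_inf_right _ le_top⟩
  have hsingle : ∀ W ∈ 𝓦, ∀ (B : Subgroup G) (x : G),
      x ∈ Subgroup.normalizer ((inducedFunctor (G := G) W (S : Subgroup G) : Subgroup G) : Set G) →
      B ≤ (S : Subgroup G) → conjOf x B ≤ (S : Subgroup G) → FusionChain 𝒩 (S : Subgroup G) B x :=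
    fun W hW B x hx hB hxB => FusionChain.single hB ⟨_, hmem W hW, hx⟩ hxB
  set Q := pCore p G with hQ
  haveI hQn : Q.Normal := Constrained.instNormalPCore p
  have hQS : Q ≤ (S : Subgroup G) := pCore_le_sylow S
  -- no normal p-subgroup
  by_cases hQ1 : Q = ⊥
  · refine fusionControlledAt_top S hWG (localFamily_all S hWG) fun T hT hne => hsub _ ?_ _ hT.sylowIn
    intro htop
    have : T ≤ Q := Constrained.le_pCore (Subgroup.normalizer_eq_top_iff.mp htop) (S.2.to_le hT.1)
    rw [hQ1] at this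
    exact hne (le_bot_iff.mp this)
  set C := Subgroup.centralizer (Q : Set G) with hC
  haveI hCn : C.Normal := inferInstance
  by_cases hcen : (S : Subgroup G) ⊓ C ≤ Q
  · -- constrained modulo the p'-core
    set K := pPrimeCore p G with hK
    haveI hKn : K.Normal := Constrained.instNormalPPrimeCore p
    have hKc : (Nat.card K).Coprime p := Constrained.pPrimeCore_coprime
    set f := QuotientGroup.mk' K with hf
    have hfs : Function.Surjective f := QuotientGroup.mk'_surjective K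
    have hker : (Nat.card f.ker).Coprime p := by rwa [hf, QuotientGroup.ker_mk']
    have hdisj : Disjoint (S : Subgroup G) f.ker := by
      rw [hf, QuotientGroup.ker_mk', Subgroup.disjoint_def]
      intro x hxS hxK
      obtain ⟨m, hm⟩ := S.2 ⟨x, hxS⟩
      exact orderOf_eq_one_iff.mp (Nat.eq_one_of_dvd_coprimes (hKc.pow_right m)
        (Subgroup.orderOf_dvd_natCard _ hxK) (orderOf_dvd_of_pow_eq_one (by simpa using congrArg Subtype.val hm)))
    obtain ⟨K', R', hn', ⟨e⟩⟩ := exists_section_of_surjective (f.comp (Subgroup.topEquiv (G := G)).toMonoidHom)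
      (hfs.comp (Subgroup.topEquiv (G := G)).surjective)
    have hquot := fusionControlledAt_of_equiv h𝓦 e
      (hloc K' R' (centralizer_pCore_le_of_equiv e.symm (constrained_quotient S hcen))) (S.mapSurjective (f := f) hfs)
    intro A g _ hA hgA
    have hfgA : conjOf (f g) (A.map f) ≤ (S : Subgroup G).map f := by
      refine conjOf_le_iff.mpr ?_
      rintro _ ⟨x, hx, rfl⟩
      exact ⟨g * x * g⁻¹, hgA (conj_mem_conjOf hx), by simp⟩
    exact exists_lift_step_chain S h𝓦 f hfs hker hdisj _ _ (hquot (A.map f) (f g) trivial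
      (Subgroup.map_mono hA) hfgA) A g hA hgA rfl (fun a _ => by simp)
  -- `C_S(Q)` not in `Q`
  set D := (S : Subgroup G) ⊓ C with hD
  have hDnot : ¬ D ≤ Q := hcen
  set M := Subgroup.normalizer ((Q ⊔ D : Subgroup G) : Set G) with hM
  have hMtop : M ≠ ⊤ := fun h => hDnot (le_sup_right.trans (Constrained.le_pCore
    (Subgroup.normalizer_eq_top_iff.mp h) (S.2.to_le (sup_le hQS inf_le_left))))
  have hSM : (S : Subgroup G) ≤ M := by
    intro s hs
    apply mem_normalizer_iff_conjOf.mpr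
    refine Subgroup.eq_of_le_of_card_ge ?_ (card_conjOf _ _).ge
    show (Q ⊔ D).map _ ≤ _
    rw [Subgroup.map_sup]
    refine sup_le_sup (conjOf_le_iff.mpr fun q hq => hQn.conj_mem q hq s) (conjOf_le_iff.mpr fun d hd =>
      ⟨(S : Subgroup G).mul_mem ((S : Subgroup G).mul_mem hs hd.1) ((S : Subgroup G).inv_mem hs), hCn.conj_mem d hd.2 s⟩)
  -- Frattini
  have hfrat : ∀ g : G, ∃ a ∈ C ⊔ (S : Subgroup G), ∃ b ∈ M, g = a * b := by
    intro g
    have hsyl : SylowIn p D C := ⟨inf_le_right, S.2.to_le inf_le_left,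
      Alperin.not_dvd_relIndex_inf S (N := ⊤) (by rw [inf_top_eq, Subgroup.relIndex_top_right]; exact S.not_dvd_index)
        le_top (by rw [Subgroup.normalizer_eq_top])⟩
    have hle : conjOf g D ≤ C := conjOf_le_iff.mpr fun d hd => hCn.conj_mem d hd.2 g
    obtain ⟨c, hc, hcD⟩ := exists_conj_le_of_sylowIn hsyl hle ((S.2.to_le inf_le_left).map _)
    rw [conjOf_conjOf] at hcD
    refine ⟨c⁻¹, Subgroup.mem_sup_left (C.inv_mem hc), c * g, ?_, by group⟩
    apply mem_normalizer_iff_conjOf.mpr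
    refine Subgroup.eq_of_le_of_card_ge ?_ (card_conjOf _ _).ge
    show (Q ⊔ D).map _ ≤ _
    rw [Subgroup.map_sup]
    exact sup_le_sup (conjOf_le_iff.mpr fun q hq => hQn.conj_mem q hq _) hcD
  intro A g _ hA hgA
  by_cases hH : C ⊔ (S : Subgroup G) ≠ ⊤
  · obtain ⟨a, ha, b, hb, rfl⟩ := hfrat g
    exact fusionChain_mul S le_sup_right hSM (hover _ le_sup_right hH) (hover M hSM hMtop) ha hb hA hgA
  rw [not_not] at hH
  -- `G = C(Q) S`: induction through `G / Q`
  set f := QuotientGroup.mk' Q with hf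
  have hfs : Function.Surjective f := QuotientGroup.mk'_surjective Q
  have hker : f.ker = Q := QuotientGroup.ker_mk' Q
  have hcard : Nat.card (G ⧸ Q) < n := by
    have h1 := Subgroup.card_eq_card_quotient_mul_card_subgroup Q
    have h2 : 1 < Nat.card Q := by
      rw [Finite.one_lt_card_iff_nontrivial, Subgroup.nontrivial_iff_ne_bot]; exact hQ1
    have h3 : 0 < Nat.card (G ⧸ Q) := Nat.card_pos
    rw [← hn, h1]
    exact lt_mul_of_one_lt_right h3 h2
  set Sb := S.mapSurjective (f := f) hfs with hSb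
  have hquot := IH _ hcard (G ⧸ Q) rfl (fusionInConstrained_of_surjective h𝓦 hloc
    (f.comp (Subgroup.topEquiv (G := G)).toMonoidHom) (hfs.comp (Subgroup.topEquiv (G := G)).surjective)) Sb
  have hScomap : (Sb : Subgroup (G ⧸ Q)).comap f = (S : Subgroup G) := by
    rw [hSb, Sylow.coe_mapSurjective, Subgroup.comap_map_eq, hker, sup_eq_left.mpr hQS]
  have hSbne : (Sb : Subgroup (G ⧸ Q)) ≠ ⊥ := by
    intro h
    apply hDnot
    intro d hd
    rw [← hker]
    show d ∈ f.ker
    have hd' : d ∈ (Sb : Subgroup (G ⧸ Q)).comap f := by rw [hScomap]; exact hd.1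
    rw [MonoidHom.mem_ker, ← Subgroup.mem_bot, ← h]
    exact hd'
  have hstep : ∀ N ∈ Subgroup.comap f ''
      functorNormalizers ((fun W => inducedFunctor (G := G ⧸ Q) W) '' 𝓦) ⊤ (Sb : Subgroup (G ⧸ Q)),
      ∀ (B : Subgroup G) (x : G), x ∈ N → B ≤ (S : Subgroup G) → conjOf x B ≤ (S : Subgroup G) →
        FusionChain 𝒩 (S : Subgroup G) B x := by
    rintro _ ⟨_, ⟨_, ⟨W, hW, rfl⟩, rfl⟩, rfl⟩
    set U := (inducedFunctor (G := G ⧸ Q) W (Sb : Subgroup (G ⧸ Q))).comap f with hU
    have hUS : U ≤ (S : Subgroup G) := by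
      rw [← hScomap]; exact Subgroup.comap_mono (inducedFunctor_le _)
    have hUN : (⊤ ⊓ Subgroup.normalizer ((inducedFunctor (G := G ⧸ Q) W (Sb : Subgroup (G ⧸ Q)) : Subgroup (G ⧸ Q)) : Set (G ⧸ Q))).comap f =
        Subgroup.normalizer (U : Set G) := by
      rw [top_inf_eq, hU, Subgroup.comap_normalizer_eq_of_surjective _ hfs]
    rw [hUN]
    refine hover _ ?_ ?_
    · rw [← hUN, top_inf_eq, ← hScomap]
      exact Subgroup.comap_mono (le_normalizer_inducedFunctor (h𝓦 W hW) Sb.2)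
    · intro htop
      have h1 : U ≤ Q := Constrained.le_pCore (Subgroup.normalizer_eq_top_iff.mp htop) (S.2.to_le hUS)
      apply inducedFunctor_ne_bot (h𝓦 W hW) Sb.2 hSbne
      rw [← Subgroup.map_comap_eq_self_of_surjective hfs (inducedFunctor (G := G ⧸ Q) W (Sb : Subgroup (G ⧸ Q))),
        Subgroup.map_eq_bot_iff, hker]
      exact h1
  -- Alperin's theorem modulo centralizers
  refine Alperin.centric_radical_induction S
    (fun B x => FusionChain 𝒩 (S : Subgroup G) B x)
    (fun H K x hHK _ _ h => h.mono hHK) (fun H x y _ _ _ h1 h2 => h1.comp h2)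
    (fun H c hH hc => .refl H c hH fun a ha => by rw [← Subgroup.mem_centralizer_iff.mp hc a ha]; group)
    ?_ A g hA hgA
  intro U T hT hFN hTN hrad y hy _
  have hUS : U ≤ (S : Subgroup G) := by rw [← hT]; exact inf_le_left
  set N := Subgroup.normalizer (U : Set G) with hN
  have hCUN : Subgroup.centralizer (U : Set G) ≤ N := Subgroup.centralizer_le_normalizer _
  have hNC : N ≤ Subgroup.normalizer ((Subgroup.centralizer (U : Set G) : Subgroup G) : Set G) := by
    intro m hm
    refine Alperin.mem_normalizer_of_conj_map_eq (Alperin.eq_of_le_of_card_conj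
      (Alperin.conj_map_le_iff.mpr fun x hx => ?_) le_rfl)
    have := Alperin.mem_centralizer_conj_map (H := U) (g := m) (x := m * x * m⁻¹)
    rw [Alperin.conj_map_eq_of_mem_normalizer hm] at this
    rw [this]
    simpa [mul_assoc] using hx
  have hQU : Q ≤ U := by
    by_contra hcon
    have hlt : U < U ⊔ Q := lt_of_le_of_ne le_sup_left fun h => hcon (le_sup_right.trans h.ge)
    have h1 := Alperin.lt_inf_normalizer (S.2.to_le (sup_le hUS hQS)) hlt
    set W := Subgroup.centralizer (U : Set G) ⊔ (Q ⊓ N) with hW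
    have hWN : W ≤ N := sup_le hCUN inf_le_right
    have hNW : N ≤ Subgroup.normalizer (W : Set G) := by
      intro m hm
      refine mem_normalizer_iff_conjOf.mpr (Subgroup.eq_of_le_of_card_ge ?_ (card_conjOf _ _).ge)
      show W.map _ ≤ W
      rw [hW, Subgroup.map_sup]
      refine sup_le_sup (le_of_eq (Subgroup.mem_normalizer_iff_map_conj_eq.mp (hNC hm))) ?_
      exact conjOf_le_iff.mpr fun x hx => ⟨hQn.conj_mem x hx.1 m, N.mul_mem (N.mul_mem hm hx.2) (N.inv_mem hm)⟩
    have h2 : Q ⊓ N ≤ U :=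
      (le_inf (inf_le_left.trans hQS) le_sup_right).trans (hrad W le_sup_left hWN hNW
        (sup_le le_sup_left ((le_inf (inf_le_left.trans hQS) le_sup_right).trans le_sup_right)))
    refine h1.not_ge ?_
    intro x hx
    have hxUQ : x ∈ U ⊔ Q := hx.1
    rw [← SetLike.mem_coe, Subgroup.mul_normal] at hxUQ
    obtain ⟨a, ha, q, hq, rfl⟩ := Set.mem_mul.mp hxUQ
    refine U.mul_mem ha (h2 ⟨hq, ?_⟩)
    have := N.mul_mem (N.inv_mem (Subgroup.le_normalizer ha)) hx.2
    simpa using this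
  have hUcomap : (U.map f).comap f = U := by
    rw [Subgroup.comap_map_eq, hker, sup_eq_left.mpr hQU]
  have hUmap : U.map f ≤ (Sb : Subgroup (G ⧸ Q)) := by
    rw [hSb, Sylow.coe_mapSurjective]
    exact Subgroup.map_mono hUS
  have hyU : conjOf (f y) (U.map f) = U.map f := by
    apply mem_normalizer_iff_conjOf.mp
    exact Subgroup.le_normalizer_map f ⟨y, hy, rfl⟩
  obtain ⟨c, hc, hcompat⟩ := exists_lift_chain f hfs
    (hquot (U.map f) (f y) trivial hUmap (hyU.le.trans hUmap))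
  rw [hScomap, hUcomap] at hc
  rw [hUcomap] at hcompat
  have hc' := fusionChain_bind hstep hc
  have hcN : c ∈ N := by
    refine mem_normalizer_iff_conjOf.mpr (Subgroup.eq_of_le_of_card_ge ?_ (card_conjOf _ _).ge)
    refine conjOf_le_iff.mpr fun u hu => ?_
    rw [← hUcomap]
    show f (c * u * c⁻¹) ∈ U.map f
    rw [hcompat u hu]
    exact hyU.le (conj_mem_conjOf ⟨u, hu, rfl⟩)
  -- z = c⁻¹ y stabilizes U > Q
  set D' : Subgroup G := N ⊓ ⨅ u : ↥U, (Subgroup.centralizer ({f (u : G)} : Set (G ⧸ Q))).comap f with hD'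
  have hmemD' : ∀ {z : G}, z ∈ D' ↔ z ∈ N ∧ ∀ u ∈ U, f z * f u = f u * f z := by
    intro z
    simp [hD', Subgroup.mem_iInf, Subgroup.mem_centralizer_singleton_iff]
  have hz : c⁻¹ * y ∈ D' := by
    refine hmemD'.mpr ⟨N.mul_mem (N.inv_mem hcN) hy, fun u hu => ?_⟩
    have hu' : c⁻¹ * y * u * (c⁻¹ * y)⁻¹ ∈ U :=
      ((Subgroup.mem_normalizer_iff.mp (N.mul_mem (N.inv_mem hcN) hy)) u).mp hu
    have h1 := hcompat _ hu'
    have h2 : f (c * (c⁻¹ * y * u * (c⁻¹ * y)⁻¹) * c⁻¹) = f y * f u * (f y)⁻¹ := by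
      rw [← map_inv, ← map_mul, ← map_mul]; congr 1; group
    rw [h2] at h1
    have h3 : f (c⁻¹ * y * u * (c⁻¹ * y)⁻¹) = f u := (mul_left_cancel (mul_right_cancel h1)).symm
    calc f (c⁻¹ * y) * f u = f (c⁻¹ * y * u * (c⁻¹ * y)⁻¹) * f (c⁻¹ * y) := by
          rw [← map_mul, ← map_mul]; congr 1; group
      _ = f u * f (c⁻¹ * y) := by rw [h3]
  have hD'N : D' ≤ N := inf_le_left
  have hCD' : Subgroup.centralizer (U : Set G) ≤ D' := fun z hz => hmemD'.mpr
    ⟨hCUN hz, fun u hu => by rw [← map_mul, ← map_mul, Subgroup.mem_centralizer_iff.mp hz u hu]⟩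
  have hND' : N ≤ Subgroup.normalizer (D' : Set G) := by
    intro m hm
    refine mem_normalizer_iff_conjOf.mpr (Subgroup.eq_of_le_of_card_ge ?_ (card_conjOf _ _).ge)
    refine conjOf_le_iff.mpr fun z hz => ?_
    obtain ⟨hzN, hz⟩ := hmemD'.mp hz
    refine hmemD'.mpr ⟨N.mul_mem (N.mul_mem hm hzN) (N.inv_mem hm), fun u hu => ?_⟩
    have hu' : m⁻¹ * u * m ∈ U := by
      have := ((Subgroup.mem_normalizer_iff.mp (N.inv_mem hm)) u).mp hu
      simpa using this
    have h1 := hz _ hu'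
    calc f (m * z * m⁻¹) * f u = f m * (f z * f (m⁻¹ * u * m)) * (f m)⁻¹ := by
          simp only [← map_mul, ← map_inv]; congr 1; group
      _ = f m * (f (m⁻¹ * u * m) * f z) * (f m)⁻¹ := by rw [h1]
      _ = f u * f (m * z * m⁻¹) := by simp only [← map_mul, ← map_inv]; congr 1; group
  have hsylD : ¬ p ∣ ((S : Subgroup G) ⊓ D').relIndex D' := Alperin.not_dvd_relIndex_inf S hFN hD'N hND'
  -- p'-elements of D' centralize U
  have hp'C : ∀ d ∈ D', (orderOf d).Coprime p → d ∈ Subgroup.centralizer (U : Set G) := by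
    intro d hd hcop
    have hdC : d ∈ C := by
      obtain ⟨s, hs, hds⟩ : ∃ s ∈ (S : Subgroup G), QuotientGroup.mk' C s = QuotientGroup.mk' C d := by
        have : d ∈ C ⊔ (S : Subgroup G) := by rw [hH]; trivial
        rw [← SetLike.mem_coe, Subgroup.normal_mul] at this
        obtain ⟨c, hc, s, hs, rfl⟩ := Set.mem_mul.mp this
        refine ⟨s, hs, ?_⟩
        rw [map_mul, (show QuotientGroup.mk' C c = 1 from (QuotientGroup.eq_one_iff c).mpr hc), one_mul]
      obtain ⟨m, hm⟩ := S.2 ⟨s, hs⟩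
      have h1 : orderOf (QuotientGroup.mk' C d) ∣ p ^ m := by
        rw [← hds]
        exact (orderOf_map_dvd _ s).trans (orderOf_dvd_of_pow_eq_one (by simpa using congrArg Subtype.val hm))
      exact (QuotientGroup.eq_one_iff d).mp (orderOf_eq_one_iff.mp
        (Nat.eq_one_of_dvd_coprimes (hcop.pow_right m) (orderOf_map_dvd (QuotientGroup.mk' C) d) h1))
    rw [Subgroup.mem_centralizer_iff]
    intro u hu
    set q := d * u * d⁻¹ * u⁻¹ with hq
    have hqQ : q ∈ Q := by
      rw [← QuotientGroup.eq_one_iff]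
      show f q = 1
      rw [hq, map_mul, map_mul, map_mul, map_inv, map_inv, (hmemD'.mp hd).2 u hu]; group
    have hdq : d * q * d⁻¹ = q := by
      rw [← Subgroup.mem_centralizer_iff.mp hdC q hqQ]; group
    have hpow : ∀ k : ℕ, d ^ k * u * (d ^ k)⁻¹ = q ^ k * u := by
      intro k
      induction k with
      | zero => simp
      | succ k ih =>
        calc d ^ (k + 1) * u * (d ^ (k + 1))⁻¹ = d * (d ^ k * u * (d ^ k)⁻¹) * d⁻¹ := by
              rw [pow_succ']; group
          _ = d * q ^ k * d⁻¹ * (d * u * d⁻¹) := by rw [ih]; group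
          _ = q ^ k * (q * u) := by rw [← conj_pow, hdq, hq]; group
          _ = q ^ (k + 1) * u := by rw [pow_succ]; group
    have h2 := hpow (orderOf d)
    rw [pow_orderOf_eq_one] at h2
    have h3 : q ^ orderOf d = 1 := by
      have : u = q ^ orderOf d * u := by simpa using h2
      simpa using this
    obtain ⟨m, hm⟩ := S.2 ⟨q, hQS hqQ⟩
    have h4 : q = 1 := orderOf_eq_one_iff.mp (Nat.eq_one_of_dvd_coprimes (hcop.pow_right m)
      (orderOf_dvd_of_pow_eq_one h3) (orderOf_dvd_of_pow_eq_one (by simpa using congrArg Subtype.val hm)))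
    calc u * d = u * d := rfl
      _ = (d * u * d⁻¹ * u⁻¹)⁻¹ * d * u := by group
      _ = d * u := by rw [← hq, h4]; group
  have hgen : D' ≤ Subgroup.centralizer (U : Set G) ⊔ ((S : Subgroup G) ⊓ D') := by
    set L := Subgroup.centralizer (U : Set G) ⊔ ((S : Subgroup G) ⊓ D') with hL
    haveI hnormC : ((Subgroup.centralizer (U : Set G)).subgroupOf D').Normal :=
      (Subgroup.normal_subgroupOf_iff_le_normalizer hCD').mpr (hD'N.trans hNC)
    have hpg : IsPGroup p (↥D' ⧸ (Subgroup.centralizer (U : Set G)).subgroupOf D') := by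
      intro q
      obtain ⟨d, rfl⟩ := QuotientGroup.mk'_surjective _ q
      obtain ⟨k, m, hm, hkm⟩ := Nat.exists_eq_pow_mul_and_not_dvd (orderOf_pos d).ne' p (Fact.out : p.Prime).ne_one
      refine ⟨k, ?_⟩
      rw [← map_pow, QuotientGroup.mk'_apply, QuotientGroup.eq_one_iff]
      refine hp'C _ (d ^ p ^ k).2 ?_
      show (orderOf ((d ^ p ^ k : ↥D') : G)).Coprime p
      rw [Subgroup.orderOf_coe]
      have hd : orderOf (d ^ p ^ k) ∣ m := by
        apply orderOf_dvd_of_pow_eq_one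
        rw [← pow_mul, ← hkm, pow_orderOf_eq_one]
      exact ((((Fact.out : p.Prime).coprime_iff_not_dvd).mpr hm).symm).coprime_dvd_left hd
    obtain ⟨a, ha⟩ := IsPGroup.iff_card.mp hpg
    rw [← Subgroup.relIndex_eq_one]
    refine Nat.eq_one_of_dvd_coprimes ((((Fact.out : p.Prime).coprime_iff_not_dvd).mpr hsylD).symm.pow_right a) ?_ ?_
    · exact Subgroup.relIndex_dvd_of_le_left D' le_sup_right
    · rw [← ha]
      exact Subgroup.relIndex_dvd_of_le_left D' le_sup_left
  have hSD' : (S : Subgroup G) ⊓ D' ≤ U := hrad D' hCD' hD'N hND' hgen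
  have hz2 : c⁻¹ * y ∈ U ⊔ Subgroup.centralizer (U : Set G) :=
    (sup_le le_sup_right (hSD'.trans le_sup_left) : _ ≤ U ⊔ Subgroup.centralizer (U : Set G)) (hgen hz)
  rw [← SetLike.mem_coe, Subgroup.coe_mul_of_left_le_normalizer_right _ _ (Subgroup.le_normalizer.trans hNC)] at hz2
  obtain ⟨s, hs, c0, hc0, hsc⟩ := Set.mem_mul.mp hz2
  have hz3 : FusionChain 𝒩 (S : Subgroup G) U (c⁻¹ * y) := by
    rw [← hsc]
    have h1 : FusionChain 𝒩 (S : Subgroup G) U c0 :=
      .refl U c0 hUS fun a ha => by rw [← Subgroup.mem_centralizer_iff.mp hc0 a ha]; group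
    refine h1.comp ?_
    have e : conjOf c0 U = U := mem_normalizer_iff_conjOf.mp (hCUN hc0)
    rw [e]
    have hStop : (S : Subgroup G) ≠ ⊤ := fun h => hDnot
      (le_top.trans (Constrained.le_pCore inferInstance (h ▸ S.2 : IsPGroup p ↥(⊤ : Subgroup G))))
    refine hover _ le_rfl hStop U s (hUS hs) hUS ?_
    rw [mem_normalizer_iff_conjOf.mp (Subgroup.le_normalizer hs : s ∈ N)]; exact hUS
  have e : conjOf (c⁻¹ * y) U = U := mem_normalizer_iff_conjOf.mp (N.mul_mem (N.inv_mem hcN) hy)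
  have h7 := hz3.comp (h := c) (e.symm ▸ hc')
  rwa [mul_inv_cancel_left] at h7

end CfsgLib.SectionFunctors
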